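import Cfsg.Agent.Lib.OrthChev.Ops
import Cfsg.Agent.Lib.Chev.Checks
import Cfsg.Prelude.Def_Steinberg

/-!
A symbolic evaluation of words in orthogonal root transformations, and representations of Steinberg's groups
checked by it.
-/

set_option autoImplicit false

namespace Cfsg.Agent.Lib.OrthChev

open Cfsg.Lie Cfsg.Agent.Lib.Chev

/-- A coded root transformation: long `(a, b)` or short `a` (then the marked code is `0`), with a sign. -/
structure OpCode where
  sh : Bool
  ng : Bool
  a : ℕ
  b : ℕ

/-- Codes: size, partner map and the coded roots. -/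
structure Codes where
  m : ℕ
  barC : ℕ → ℕ
  ops : ℕ → OpCode

namespace Codes

variable (K : Codes)

/-- image of a term under a letter -/
def image (L : Let) (q : Tm) : List Tm :=
  let o := K.ops L.r
  let c := bif o.ng then -L.c else L.c
  bif o.sh then
    q :: ((bif Nat.beq q.b (K.barC o.a) then
        [⟨0, q.i + L.a, q.j + L.b, q.c * c⟩, ⟨o.a, q.i + (L.a + L.a), q.j + (L.b + L.b), -(q.c * (c * c))⟩]
      else []) ++
      (bif Nat.beq q.b 0 then [⟨o.a, q.i + L.a, q.j + L.b, -(2 * (q.c * c))⟩] else []))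
  else
    q :: ((bif Nat.beq q.b o.b then [⟨o.a, q.i + L.a, q.j + L.b, q.c * c⟩] else []) ++
      (bif Nat.beq q.b (K.barC o.a) then [⟨K.barC o.b, q.i + L.a, q.j + L.b, -(q.c * c)⟩] else []))

/-- image of a list of terms under a letter -/
def applyV (L : Let) : List Tm → List Tm
  | [] => []
  | q :: l => addAll (K.image L q) (applyV L l)

/-- image under a word -/
def evalW : List Let → List Tm → List Tm
  | [], v => v
  | L :: w, v => K.applyV L (evalW w v)

/-- the code data are sensible -/
def codeCheck (n : ℕ) : Bool :=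
  (allBelow K.m fun c => Nat.blt (K.barC c) K.m && Nat.beq (K.barC (K.barC c)) c) &&
  allBelow n fun r =>
    let o := K.ops r
    Nat.blt o.a K.m && !(Nat.beq (K.barC o.a) o.a) &&
      (bif o.sh then Nat.beq (K.barC 0) 0
       else Nat.blt o.b K.m && !(Nat.beq (K.barC o.b) o.b) && !(Nat.beq o.a o.b) && !(Nat.beq o.a (K.barC o.b)))

/-- the commutator formula on all pairs -/
def commAll (T : Fast) : Bool :=
  allBelow T.n fun r => allBelow T.n fun s => Nat.beq s r || Nat.beq s (T.ng r) || allBelow K.m fun b =>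
    sameTms (K.evalW [⟨s, 1, 0, 1⟩, ⟨r, 1, 1, 0⟩] [⟨b, 0, 0, 1⟩])
      (K.evalW ([⟨r, 1, 1, 0⟩, ⟨s, 1, 0, 1⟩] ++ T.commLets r s) [⟨b, 0, 0, 1⟩])

/-- cancel a parameter against its inverse -/
def cancel : List Tm → List Tm
  | [] => []
  | q :: l => addTm ⟨q.b, q.i - q.j, q.j - q.i, q.c⟩ (cancel l)

/-- the word of `h_r(t)`, with the second parameter standing for the inverse of `t` -/
def hLets (r nr : ℕ) : List Let :=
  [⟨r, 1, 1, 0⟩, ⟨nr, -1, 0, 1⟩, ⟨r, 1, 1, 0⟩, ⟨r, -1, 0, 0⟩, ⟨nr, 1, 0, 0⟩, ⟨r, -1, 0, 0⟩]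

/-- exponents of `h_r` -/
def hTerm (T : Fast) (r b : ℕ) : List Tm := cancel (K.evalW (hLets r (T.ng r)) [⟨b, 0, 0, 1⟩])

/-- `h_r` is diagonal -/
def hAll (T : Fast) : Bool :=
  allBelow T.n fun r => allBelow K.m fun b =>
    match K.hTerm T r b with
    | [q] => Nat.beq q.b b && beqI q.c 1
    | _ => false

end Codes

variable {ι : Type} [Fintype ι] [DecidableEq ι] {F : Type*} [Field F]

/-- An indexing of a frame by codes. -/
structure Indexing (K : Codes) (Φ : Frame ι) where
  ix : ℕ → ι
  surj : ∀ c : ι, ∃ k < K.m, ix k = c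
  inj : ∀ k < K.m, ∀ l < K.m, ix k = ix l → k = l
  barC_spec : ∀ k < K.m, ix (K.barC k) = Φ.bar (ix k)
  zero : ix 0 = Φ.o
  pos : 0 < K.m

variable {K : Codes} {Φ : Frame ι} (I : Indexing K Φ)

/-- the vector of a code -/
def Indexing.vec (F : Type*) [Field F] (k : ℕ) : ι → F := if k < K.m then Pi.single (I.ix k) 1 else 0

/-- value of a term -/
def Indexing.val (t u : F) (q : Tm) : ι → F := ((q.c : F) * t ^ q.i * u ^ q.j) • I.vec F q.b

/-- value of a list -/
def Indexing.vals (t u : F) (l : List Tm) : ι → F := (l.map (I.val t u)).sum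

namespace Indexing

variable (t u : F)

theorem vals_cons (q : Tm) (l : List Tm) : I.vals t u (q :: l) = I.val t u q + I.vals t u l := by
  simp [vals]

theorem vals_addTm (q : Tm) : ∀ l : List Tm, I.vals t u (addTm q l) = I.val t u q + I.vals t u l
  | [] => by
    unfold addTm
    cases h : beqI q.c 0
    · simp [vals]
    · simp [vals, val, beqI_eq h]
  | p :: l => by
    unfold addTm
    cases h : Nat.beq q.b p.b && Nat.beq q.i p.i && Nat.beq q.j p.j
    · simp [vals_cons, vals_addTm q l, add_left_comm]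
    · simp only [Bool.and_eq_true] at h
      have hb := Nat.eq_of_beq_eq_true h.1.1
      have hi := Nat.eq_of_beq_eq_true h.1.2
      have hj := Nat.eq_of_beq_eq_true h.2
      have key : I.val t u ⟨p.b, p.i, p.j, q.c + p.c⟩ = I.val t u q + I.val t u p := by
        simp [val, hb, hi, hj, add_mul, add_smul]
      cases h0 : beqI (q.c + p.c) 0
      · simp only [cond_true, cond_false, vals_cons, key, add_assoc]
      · simp only [cond_true, vals_cons]
        have hz : I.val t u ⟨p.b, p.i, p.j, q.c + p.c⟩ = 0 := by simp [val, beqI_eq h0]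
        rw [← add_assoc, ← key, hz, zero_add]

theorem vals_addAll : ∀ l acc : List Tm, I.vals t u (addAll l acc) = I.vals t u l + I.vals t u acc
  | [], acc => by simp [addAll, vals]
  | q :: l, acc => by simp [addAll, vals_addTm, vals_addAll l acc, vals_cons, add_assoc]

theorem vals_of_same {v w : List Tm} (h : sameTms v w = true) : I.vals t u v = I.vals t u w := by
  have hneg : ∀ l : List Tm, I.vals t u (l.map negTm) = - I.vals t u l := by
    intro l
    induction l with
    | nil => simp [vals]
    | cons q l ih => simp [vals_cons, ih, val, negTm, add_comm]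
  have h1 : addAll v (addAll (w.map negTm) []) = [] := List.isEmpty_iff.1 h
  have := congrArg (I.vals t u) h1
  rw [vals_addAll, vals_addAll, hneg] at this
  simp [vals] at this
  exact add_neg_eq_zero.1 this

theorem vals_cancel {t : F} (ht : t ≠ 0) : ∀ l : List Tm,
    I.vals t t⁻¹ (Codes.cancel l) = I.vals t t⁻¹ l
  | [] => rfl
  | q :: l => by
    rw [Codes.cancel, vals_addTm, vals_cancel ht l, vals_cons]
    congr 1
    simp only [val]
    congr 1
    rcases le_total q.i q.j with h | h
    · rw [Nat.sub_eq_zero_of_le h, pow_zero, mul_one, mul_assoc, inv_pow, inv_pow]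
      congr 1
      rw [pow_sub₀ _ ht h, mul_inv, inv_inv, mul_comm]
    · rw [Nat.sub_eq_zero_of_le h, pow_zero, mul_one, mul_assoc, inv_pow]
      congr 1
      rw [pow_sub₀ _ ht h]

/-- The transformation of a coded root. -/
def opOf (r : ℕ) (s : F) : (ι → F) →ₗ[F] (ι → F) :=
  let o := K.ops r
  let s' := if o.ng then -s else s
  if o.sh then opS Φ (I.ix o.a) s' else opL Φ (I.ix o.a) (I.ix o.b) s'

variable {n : ℕ} (hK : K.codeCheck n = true)
include hK

theorem code_ok {r : ℕ} (hr : r < n) : (K.ops r).a < K.m ∧ K.barC (K.ops r).a < K.m ∧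
    ((K.ops r).sh = true → ShortOK Φ (I.ix (K.ops r).a)) ∧
    ((K.ops r).sh = false → LongOK Φ (I.ix (K.ops r).a) (I.ix (K.ops r).b) ∧ (K.ops r).b < K.m ∧
      K.barC (K.ops r).b < K.m) := by
  simp only [Codes.codeCheck, Bool.and_eq_true, allBelow_iff, Nat.blt_eq, Nat.beq_eq, Bool.not_eq_true'] at hK
  obtain ⟨⟨ha, hab⟩, h⟩ := hK.2 r hr
  have hba := (hK.1 _ ha).1
  have fne : ∀ {x y : ℕ}, Nat.beq x y = false → x < K.m → y < K.m → I.ix x ≠ I.ix y := fun h hx hy e => by
    rw [I.inj _ hx _ hy e, Nat.beq_refl] at h; simp at h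
  have hA : Φ.bar (I.ix (K.ops r).a) ≠ I.ix (K.ops r).a := by
    rw [← I.barC_spec _ ha]; exact fne hab hba ha
  refine ⟨ha, hba, fun hs => ?_, fun hs => ?_⟩
  · rw [hs] at h
    simp only [cond_true, Nat.beq_eq] at h
    refine ⟨hA, ?_⟩
    rw [← I.zero, ← I.barC_spec 0 I.pos, h]
  · rw [hs] at h
    simp only [cond_false, Bool.and_eq_true, Nat.blt_eq, Bool.not_eq_true'] at h
    obtain ⟨⟨⟨hb, hbb⟩, hne⟩, hnb⟩ := h
    have hbm := (hK.1 _ hb).1
    refine ⟨⟨hA, ?_, fne hne ha hb, ?_⟩, hb, hbm⟩
    · rw [← I.barC_spec _ hb]; exact fne hbb hbm hb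
    · rw [← I.barC_spec _ hb]; exact fne hnb ha hbm

theorem op_val (L : Let) (hL : L.r < n) (q : Tm) :
    I.opOf L.r ((L.c : F) * t ^ L.a * u ^ L.b) (I.val t u q) = I.vals t u (K.image L q) := by
  obtain ⟨ha, hba, hS, hLo⟩ := I.code_ok hK hL
  have hvec : ∀ k < K.m, ∀ x : F, x • I.vec F k = Pi.single (I.ix k) x := fun k hk x => by
    funext c; simp [vec, hk, Pi.single_apply]
  have hat : ∀ k, k < K.m → ∀ x : F, (x • I.vec F q.b) (I.ix k) = if q.b = k then x else 0 := by
    intro k hk x
    by_cases hq : q.b < K.m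
    · rw [hvec _ hq]
      by_cases e : q.b = k
      · rw [e, if_pos rfl, Pi.single_eq_same]
      · rw [if_neg e, Pi.single_eq_of_ne fun e' => e (I.inj _ hk _ hq e').symm]
    · rw [if_neg (by omega)]
      simp [vec, hq]
  have hz : I.vals t u [] = 0 := rfl
  unfold opOf Codes.image
  cases hs : (K.ops L.r).sh
  · obtain ⟨hok, hb, hbb⟩ := hLo hs
    have hne : (K.ops L.r).b ≠ K.barC (K.ops L.r).a := fun e =>
      hok.swap.nebar (by rw [← I.barC_spec _ ha, ← e])
    simp only [hs, cond_false, Bool.false_eq_true, if_false, opL_apply, val]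
    rw [hat _ hb, ← I.barC_spec _ ha, hat _ hba, ← I.barC_spec _ hb, natBeq_decide, natBeq_decide]
    by_cases e1 : q.b = (K.ops L.r).b <;> by_cases e2 : q.b = K.barC (K.ops L.r).a
    · exact absurd (e1.symm.trans e2) hne
    all_goals
      simp only [if_pos, if_neg, e1, e2, if_true, if_false, decide_true, decide_false, cond_true, cond_false,
        List.cons_append, List.nil_append, vals_cons, hz, val, hvec _ ha, hvec _ hbb, add_zero, mul_zero,
        Pi.single_zero, sub_zero, hne, hne.symm, not_false_eq_true] <;>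
      cases (K.ops L.r).ng <;>
        (funext c
         simp only [Pi.add_apply, Pi.sub_apply, Pi.single_apply, cond_true, cond_false, if_true, if_false,
           Bool.false_eq_true]
         push_cast
         split_ifs <;> ring)
  · have hok := hS hs
    have hne : K.barC (K.ops L.r).a ≠ 0 := fun e =>
      hok.bar_ne_o (by rw [← I.barC_spec _ ha, e, I.zero])
    simp only [hs, cond_true, if_true, opS_apply, val]
    rw [← I.barC_spec _ ha, hat _ hba, ← I.zero, hat _ I.pos, natBeq_decide, natBeq_decide]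
    by_cases e1 : q.b = K.barC (K.ops L.r).a <;> by_cases e2 : q.b = 0
    · exact absurd (e1.symm.trans e2) hne
    all_goals
      simp only [e1, e2, if_true, if_false, decide_true, decide_false, cond_true, cond_false,
        List.cons_append, List.nil_append, vals_cons, hz, val, hvec _ ha, hvec _ I.pos, add_zero, mul_zero,
        Pi.single_zero, sub_zero, zero_add, hne, hne.symm] <;>
      cases (K.ops L.r).ng <;>
        (funext c
         simp only [Pi.add_apply, Pi.sub_apply, Pi.single_apply, cond_true, cond_false, if_true, if_false,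
           Bool.false_eq_true]
         push_cast
         split_ifs <;> ring)

theorem op_vals (L : Let) (hL : L.r < n) : ∀ l : List Tm,
    I.opOf L.r ((L.c : F) * t ^ L.a * u ^ L.b) (I.vals t u l) = I.vals t u (K.applyV L l)
  | [] => by simp [vals, Codes.applyV]
  | q :: l => by
    rw [vals_cons, map_add, op_val I t u hK L hL q, op_vals L hL l, Codes.applyV, vals_addAll]

/-- The root element. -/
def rootGL {r : ℕ} (hr : r < n) (s : F) : GL ι F :=
  if hs : (K.ops r).sh = true then glS _ ((I.code_ok hK hr).2.2.1 hs) (if (K.ops r).ng then -s else s)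
  else glL _ _ ((I.code_ok hK hr).2.2.2 (Bool.eq_false_iff.2 hs)).1 (if (K.ops r).ng then -s else s)

theorem rootGL_mulVec {r : ℕ} (hr : r < n) (s : F) (v : ι → F) :
    Matrix.mulVec (I.rootGL hK hr s).1 v = I.opOf r s v := by
  unfold rootGL opOf
  by_cases hs : (K.ops r).sh = true
  · rw [dif_pos hs, glS_mulVec]; simp [hs]
  · rw [dif_neg hs, glL_mulVec]; simp [Bool.eq_false_iff.2 hs]

/-- The value of a free generator. -/
def genGL (F : Type*) [Field F] : Fin n × F → GL ι F := fun p => I.rootGL hK p.1.2 p.2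

theorem eval_word (D : ChevalleyDatum) (hn : n = D.nroots) : ∀ w : List Let, (∀ L ∈ w, L.r < n) →
    ∀ l : List Tm, Matrix.mulVec
      (FreeGroup.lift (fun p : Fin D.nroots × F => I.rootGL hK (hn ▸ p.1.2 : (p.1 : ℕ) < n) p.2)
        (D.stWord (realize t u w))).1 (I.vals t u l) = I.vals t u (K.evalW w l)
  | [], _, l => by simp [realize, ChevalleyDatum.stWord, Codes.evalW]
  | L :: w, hw, l => by
    have ih := eval_word D hn w (fun M hM => hw M (by simp [hM])) l
    simp only [ChevalleyDatum.stWord, realize, List.map_cons, List.prod_cons, map_mul] at ih ⊢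
    rw [Units.val_mul, ← Matrix.mulVec_mulVec, ih, ChevalleyDatum.stX, dif_pos (hn ▸ hw L (by simp)),
      FreeGroup.lift_apply_of, rootGL_mulVec, op_vals I t u hK L (hw L (by simp)), Codes.evalW]

end Indexing

/-- Everything needed for a representation of Steinberg's group. -/
structure RepData (D : ChevalleyDatum) (T : Fast) (K : Codes) : Prop where
  checked : Checked D T
  code : K.codeCheck D.nroots = true
  comm : K.commAll T = true
  hdiag : K.hAll T = true

variable {D : ChevalleyDatum} {T : Fast}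

namespace RepData

variable (R : RepData D T K)
include R

/-- the generator map -/
def genMap (F : Type*) [Field F] : Fin D.nroots × F → GL ι F := fun p => I.rootGL R.code p.1.2 p.2

theorem lift_stX {r : ℕ} (hr : r < D.nroots) (s : F) :
    FreeGroup.lift (R.genMap I F) (D.stX r s) = I.rootGL R.code hr s := by
  rw [ChevalleyDatum.stX, dif_pos hr, FreeGroup.lift_apply_of]; rfl

theorem rootGL_add {r : ℕ} (hr : r < D.nroots) (t u : F) :
    I.rootGL R.code hr t * I.rootGL R.code hr u = I.rootGL R.code hr (t + u) := by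
  refine gl_ext fun v => ?_
  rw [Units.val_mul, ← Matrix.mulVec_mulVec, I.rootGL_mulVec, I.rootGL_mulVec, I.rootGL_mulVec]
  obtain ⟨-, -, hS, hL⟩ := I.code_ok R.code hr
  unfold Indexing.opOf
  cases hs : (K.ops r).sh <;> cases hg : (K.ops r).ng <;> simp only [hs, hg, if_true, if_false, Bool.false_eq_true]
  · exact opL_add (hL hs).1 t u v
  · rw [opL_add (hL hs).1, neg_add]
  · exact opS_add (hS hs) t u v
  · rw [opS_add (hS hs), neg_add]

theorem word_vec (t u : F) (w : List Let) (hw : ∀ L ∈ w, L.r < D.nroots) {b : ℕ} (hb : b < K.m) :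
    Matrix.mulVec (FreeGroup.lift (R.genMap I F) (D.stWord (realize t u w))).1 (Pi.single (I.ix b) 1) =
      I.vals t u (K.evalW w [⟨b, 0, 0, 1⟩]) := by
  have h := I.eval_word t u R.code D rfl w hw [⟨b, 0, 0, 1⟩]
  rw [← h]
  congr 1
  simp [Indexing.vals, Indexing.val, Indexing.vec, hb]

theorem rels : ∀ g ∈ D.steinbergRels F, FreeGroup.lift (R.genMap I F) g = 1 := by
  have C := R.checked
  rintro g ((⟨r, t, u, hr, rfl⟩ | ⟨r, s, t, u, hr, hs, h1, h2, rfl⟩) | ⟨r, t, u, hr, ht, hu, rfl⟩)
  · simp only [map_mul, map_inv, R.lift_stX I hr, R.rootGL_add I hr, mul_inv_cancel]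
  · have hc := R.comm
    simp only [Codes.commAll, allBelow_iff, Bool.or_eq_true, Nat.beq_eq, ← C.tables.nroots] at hc
    have hc := ((hc r hr s hs).resolve_left fun h => h.elim h1 fun e => h2 (by
      rw [C.tables.neg r hr]; exact e))
    have e : realize t u (T.commLets r s) = D.commWord F r s t u := by
      unfold realize Fast.commLets ChevalleyDatum.commWord
      rw [C.commT_eq hr hs, List.map_map]
      refine List.map_congr_left fun c _ => Prod.ext rfl ?_
      show (((bif Nat.beq (c.2.2.1 % 2) 1 then -c.2.1 else c.2.1) : ℤ) : F) * t ^ c.2.2.1 * u ^ c.2.2.2 = _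
      rw [neg_pow t]
      rcases Nat.even_or_odd c.2.2.1 with he | ho
      · rw [he.neg_one_pow, Nat.even_iff.1 he, natBeq_decide]; simp
      · rw [ho.neg_one_pow, Nat.odd_iff.1 ho, natBeq_decide]; simp
    have hlt : ∀ L ∈ T.commLets r s, L.r < D.nroots := by
      intro L hL
      simp only [Fast.commLets, List.mem_map] at hL
      obtain ⟨c, hc, rfl⟩ := hL
      exact C.commTerms_lt hr hs c (C.commT_eq hr hs ▸ hc)
    have key : FreeGroup.lift (R.genMap I F) (D.stWord (realize t u [⟨s, 1, 0, 1⟩, ⟨r, 1, 1, 0⟩])) =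
        FreeGroup.lift (R.genMap I F)
          (D.stWord (realize t u (([⟨r, 1, 1, 0⟩, ⟨s, 1, 0, 1⟩] : List Let) ++ T.commLets r s))) := by
      refine gl_ext_single fun c => ?_
      obtain ⟨b, hb, rfl⟩ := I.surj c
      rw [R.word_vec I t u _ (by simp [hr, hs]) hb, R.word_vec I t u _ (fun L hL => ?_) hb]
      · exact I.vals_of_same t u (hc b hb)
      · simp only [List.mem_append, List.mem_cons, List.not_mem_nil, or_false] at hL
        rcases hL with (rfl | rfl) | hL
        exacts [hr, hs, hlt L hL]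
    rw [← e]
    simp only [realize, ChevalleyDatum.stWord, List.map_cons, List.map_nil, List.map_append, List.prod_cons,
      List.prod_nil, List.prod_append, map_mul, mul_one, Int.cast_one, one_mul, pow_zero, pow_one,
      List.map_map, List.cons_append, List.nil_append] at key ⊢
    rw [map_inv, map_inv, map_inv, mul_assoc _ (FreeGroup.lift _ (D.stX s u)), key]
    group
  · have hh := R.hdiag
    simp only [Codes.hAll, allBelow_iff, ← C.tables.nroots] at hh
    have hnr := C.root.neg_lt r hr
    have hw : ∀ L ∈ Codes.hLets r (T.ng r), L.r < D.nroots := by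
      intro L hL
      rw [← C.tables.neg r hr] at hL
      simp only [Codes.hLets, List.mem_cons, List.not_mem_nil, or_false] at hL
      rcases hL with rfl | rfl | rfl | rfl | rfl | rfl <;> assumption
    have key : ∀ z : F, z ≠ 0 → ∀ b < K.m, ∀ q, K.hTerm T r b = [q] →
        Matrix.mulVec (FreeGroup.lift (R.genMap I F) (D.stH r z)).1 (Pi.single (I.ix b) 1) =
          ((q.c : F) * z ^ q.i * z⁻¹ ^ q.j) • I.vec F q.b := by
      intro z hz b hb q hq
      have e : realize z z⁻¹ (Codes.hLets r (T.ng r)) = D.hWord r z := by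
        simp [realize, Codes.hLets, ChevalleyDatum.hWord, ChevalleyDatum.nWord, C.tables.neg r hr]
      rw [ChevalleyDatum.stH, ← e, R.word_vec I z z⁻¹ _ hw hb, ← I.vals_cancel hz,
        ← show K.hTerm T r b = Codes.cancel _ from rfl, hq]
      simp [Indexing.vals, Indexing.val]
    have hd : ∀ b < K.m, ∃ i j : ℕ, ∀ z : F, z ≠ 0 →
        Matrix.mulVec (FreeGroup.lift (R.genMap I F) (D.stH r z)).1 (Pi.single (I.ix b) 1) =
          (z ^ i * z⁻¹ ^ j) • Pi.single (I.ix b) 1 := by
      intro b hb
      have h := hh r hr b hb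
      split at h
      · next q e =>
        simp only [Bool.and_eq_true, Nat.beq_eq] at h
        refine ⟨q.i, q.j, fun z hz => ?_⟩
        rw [key z hz b hb q e, h.1, beqI_eq h.2, Indexing.vec, if_pos hb]
        simp
      · simp at h
    rw [map_mul, map_mul, map_inv, mul_inv_eq_one]
    refine gl_ext_single fun c => ?_
    obtain ⟨b, hb, rfl⟩ := I.surj c
    obtain ⟨i, j, he⟩ := hd b hb
    rw [Units.val_mul, ← Matrix.mulVec_mulVec, he u hu, Matrix.mulVec_smul, he t ht, he _ (mul_ne_zero ht hu),
      smul_smul]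
    congr 1
    rw [mul_inv, mul_pow, mul_pow]
    ring

/-- The representation. -/
def rep (F : Type*) [Field F] : D.SteinbergGroup F →* GL ι F := PresentedGroup.toGroup (R.rels I)

theorem rep_gen {r : ℕ} (hr : r < D.nroots) (s : F) :
    R.rep I F (D.stGen F r s) = I.rootGL R.code hr s := R.lift_stX I hr s

end RepData

end Cfsg.Agent.Lib.OrthChev
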