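import Cfsg.Agent.Lib.OrthChev.Eval
import Cfsg.Agent.Lib.OrthChev.Omega

/-!
The Steinberg group maps onto the root group, and the adjoint group is PΩ.
-/

set_option autoImplicit false

namespace Cfsg.Agent.Lib.OrthChev

open Cfsg Cfsg.Lie Cfsg.Agent.Lib.Chev

/-- every valid code pair and every short code is the code of a root -/
def Codes.coverCheck (K : Codes) (n : ℕ) : Bool :=
  (allBelow K.m fun a => allBelow K.m fun b =>
    Nat.beq (K.barC a) a || Nat.beq (K.barC b) b || Nat.beq a b || Nat.beq a (K.barC b) ||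
      (List.range n).any fun r =>
        !(K.ops r).sh && ((Nat.beq (K.ops r).a a && Nat.beq (K.ops r).b b) ||
          (Nat.beq (K.ops r).a (K.barC b) && Nat.beq (K.ops r).b (K.barC a)))) &&
  (!(Nat.beq (K.barC 0) 0) || allBelow K.m fun a => Nat.beq (K.barC a) a ||
    (List.range n).any fun r => (K.ops r).sh && Nat.beq (K.ops r).a a)

variable {ι : Type} [Fintype ι] [DecidableEq ι] {F : Type*} [Field F] {Φ : Frame ι}
variable {D : ChevalleyDatum} {T : Fast} {K : Codes} (I : Indexing K Φ) (R : RepData D T K)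

theorem glL_congr {a a' b b' : ι} (ea : a = a') (eb : b = b') (h : LongOK Φ a b) (h' : LongOK Φ a' b') (t : F) :
    glL a b h t = glL a' b' h' t := by subst ea eb; rfl

theorem glS_congr {a a' : ι} (ea : a = a') (h : ShortOK Φ a) (h' : ShortOK Φ a') (t : F) :
    glS a h t = glS a' h' t := by subst ea; rfl

theorem range_rep (hc : K.coverCheck D.nroots = true) : (R.rep I F).range = rootGrp Φ F := by
  refine le_antisymm ?_ ?_
  · rw [MonoidHom.range_eq_map, ← PresentedGroup.closure_range_of, MonoidHom.map_closure,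
      Subgroup.closure_le]
    rintro _ ⟨_, ⟨p, rfl⟩, rfl⟩
    show R.rep I F (PresentedGroup.of p) ∈ rootGrp Φ F
    rw [RepData.rep, PresentedGroup.toGroup.of]
    show I.rootGL R.code p.1.2 p.2 ∈ rootGrp Φ F
    unfold Indexing.rootGL
    split
    · exact glS_mem_rootGrp _ _
    · exact glL_mem_rootGrp _ _
  · refine (Subgroup.closure_le _).2 ?_
    simp only [Codes.coverCheck, Bool.and_eq_true, allBelow_iff, Bool.or_eq_true, Nat.beq_eq,
      List.any_eq_true, List.mem_range, Bool.not_eq_true'] at hc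
    rintro _ (⟨a, b, h, t, rfl⟩ | ⟨a, h, t, rfl⟩)
    · obtain ⟨x, hx, rfl⟩ := I.surj a
      obtain ⟨y, hy, rfl⟩ := I.surj b
      have hn : ¬ (((K.barC x = x ∨ K.barC y = y) ∨ x = y) ∨ x = K.barC y) := by
        rintro (((e | e) | e) | e)
        · exact h.ha (by rw [← I.barC_spec _ hx, e])
        · exact h.hb (by rw [← I.barC_spec _ hy, e])
        · exact h.ne (by rw [e])
        · exact h.nebar (by rw [← I.barC_spec _ hy, ← e])
      obtain ⟨r, hr, hsh, he⟩ := (hc.1 x hx y hy).resolve_left hn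
      obtain ⟨hL, -, -⟩ := (I.code_ok R.code hr).2.2.2 hsh
      rcases he with ⟨e1, e2⟩ | ⟨e1, e2⟩
      · refine ⟨D.stGen F r (if (K.ops r).ng then -t else t), ?_⟩
        rw [R.rep_gen I hr, Indexing.rootGL, dif_neg (by simp [hsh]),
          show (if (K.ops r).ng then -(if (K.ops r).ng then -t else t) else (if (K.ops r).ng then -t else t)) = t
            from by cases (K.ops r).ng <;> simp]
        exact glL_congr (by rw [e1]) (by rw [e2]) _ h t
      · refine ⟨D.stGen F r (if (K.ops r).ng then t else -t), ?_⟩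
        rw [R.rep_gen I hr, Indexing.rootGL, dif_neg (by simp [hsh]),
          show (if (K.ops r).ng then -(if (K.ops r).ng then t else -t) else (if (K.ops r).ng then t else -t)) = -t
            from by cases (K.ops r).ng <;> simp]
        have h' : LongOK Φ (Φ.bar (I.ix y)) (Φ.bar (I.ix x)) :=
          ⟨by rw [Φ.bar_bar]; exact h.hb.symm, by rw [Φ.bar_bar]; exact h.ha.symm,
            fun e => h.ne (Φ.bar_inj e).symm, by rw [Φ.bar_bar]; exact h.nebar.symm⟩
        rw [glL_congr (by rw [e1, I.barC_spec _ hy]) (by rw [e2, I.barC_spec _ hx]) _ h' (-t), glL_symm h h',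
          neg_neg]
    · obtain ⟨x, hx, rfl⟩ := I.surj a
      have h0 : K.barC 0 = 0 := by
        by_contra e
        apply e
        obtain ⟨k, hk, hk'⟩ := I.surj Φ.o
        have h00 : Φ.bar (I.ix 0) = I.ix 0 := by rw [I.zero]; exact h.ho
        rw [← I.barC_spec 0 I.pos] at h00
        have := (R.code : K.codeCheck D.nroots = true)
        simp only [Codes.codeCheck, Bool.and_eq_true, allBelow_iff, Nat.blt_eq, Nat.beq_eq] at this
        exact I.inj _ (this.1 0 I.pos).1 _ I.pos h00
      have hn : ¬ K.barC x = x := fun e => h.ha (by rw [← I.barC_spec _ hx, e])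
      obtain ⟨r, hr, hsh, e1⟩ := ((hc.2.resolve_left (by simp [h0])) x hx).resolve_left hn
      refine ⟨D.stGen F r (if (K.ops r).ng then -t else t), ?_⟩
      rw [R.rep_gen I hr, Indexing.rootGL, dif_pos hsh,
        show (if (K.ops r).ng then -(if (K.ops r).ng then -t else t) else (if (K.ops r).ng then -t else t)) = t
          from by cases (K.ops r).ng <;> simp]
      exact glS_congr (by rw [e1]) _ h t

/-- Root elements of opposite roots do not commute. -/
theorem glL_not_comm {a b : ι} (h : LongOK Φ a b) :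
    (glL a b h 1 * glL b a h.swap 1 : GL ι F) ≠ glL b a h.swap 1 * glL a b h 1 := by
  intro e
  have := congrFun (congrArg (fun g : GL ι F => Matrix.mulVec g.1 (Pi.single a 1)) e) a
  simp only [Units.val_mul, ← Matrix.mulVec_mulVec, glL_mulVec, opL_apply] at this
  simp [h.ne, h.ne.symm, h.nebar, h.ha, h.ha.symm, h.swap.nebar, h.swap.nebar.symm,
    fun e => h.ne (Φ.bar_inj e)] at this

include I R in
/-- The adjoint group is PΩ. -/
theorem pOmega_equiv {Q : (ι → F) → F} {G : Type*} [Group G] [IsSimpleGroup G]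
    (hO : (Omega F Q).map (isometryGroup F Q).subtype = rootGrp Φ F) (hc : K.coverCheck D.nroots = true)
    (θ : D.SteinbergGroup F →* G) (hθ : Function.Surjective θ)
    (hker : θ.ker = Subgroup.center (D.SteinbergGroup F)) {a b : ι} (hab : LongOK Φ a b) :
    Nonempty (G ≃* POmega F Q) := by
  let e : Omega F Q ≃* rootGrp Φ F := ((Omega F Q).equivMapOfInjective _ (isometryGroup F Q).subtype_injective).trans
    (MulEquiv.subgroupCongr hO)
  let ρ : D.SteinbergGroup F →* rootGrp Φ F :=
    (R.rep I F).codRestrict _ fun z => range_rep (F := F) I R hc ▸ MonoidHom.mem_range.2 ⟨z, rfl⟩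
  have hρ : Function.Surjective ρ := fun y => by
    obtain ⟨z, hz⟩ : y.1 ∈ (R.rep I F).range := by rw [range_rep I R hc]; exact y.2
    exact ⟨z, Subtype.ext hz⟩
  let ρ₀ : D.SteinbergGroup F →* Omega F Q := e.symm.toMonoidHom.comp ρ
  have hρ₀ : Function.Surjective ρ₀ := e.symm.surjective.comp hρ
  let ψ : D.SteinbergGroup F →* POmega F Q := (QuotientGroup.mk' _).comp ρ₀
  have hψ : Function.Surjective ψ := (QuotientGroup.mk'_surjective _).comp hρ₀
  have hle : θ.ker ≤ ψ.ker := by
    intro z hz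
    rw [hker] at hz
    rw [MonoidHom.mem_ker]
    refine (QuotientGroup.eq_one_iff _).2 (Subgroup.mem_center_iff.2 fun y => ?_)
    obtain ⟨w, rfl⟩ := hρ₀ y
    rw [← map_mul, ← map_mul, Subgroup.mem_center_iff.1 hz w]
  let φ : G →* POmega F Q := θ.liftOfSurjective hθ ⟨ψ, hle⟩
  have hcomp : ∀ z, φ (θ z) = ψ z := fun z => θ.liftOfRightInverse_comp_apply _ _ ⟨ψ, hle⟩ z
  have hsurj : Function.Surjective φ := fun y => by
    obtain ⟨z, hz⟩ := hψ y
    exact ⟨θ z, (hcomp z).trans hz⟩
  refine ⟨MulEquiv.ofBijective φ ⟨(φ.ker_eq_bot_iff).1 ?_, hsurj⟩⟩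
  rcases (MonoidHom.normal_ker φ).eq_bot_or_eq_top with h | h
  · exact h
  exfalso
  have htriv : ∀ y : POmega F Q, y = 1 := fun y => by
    obtain ⟨g, rfl⟩ := hsurj y
    exact MonoidHom.mem_ker.1 (h ▸ Subgroup.mem_top g)
  let x : Omega F Q := e.symm ⟨_, glL_mem_rootGrp hab 1⟩
  let y : Omega F Q := e.symm ⟨_, glL_mem_rootGrp hab.swap 1⟩
  have hx := Subgroup.mem_center_iff.1 ((QuotientGroup.eq_one_iff x).1 (htriv x)) y
  have := congrArg (fun u => ((e u : rootGrp Φ F) : GL ι F)) hx
  simp only [x, y, map_mul, MulEquiv.apply_symm_apply, Subgroup.coe_mul] at this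
  exact glL_not_comm hab this.symm

end Cfsg.Agent.Lib.OrthChev
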