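import Cfsg.Agent.Lib.OrthChev.Iso
import Cfsg.Agent.Lib.Chev.Data.B2

/-!
The representation of Steinberg's group of type B2 on the orthogonal space of dimension five.
-/

set_option autoImplicit false

namespace Cfsg.Agent.Lib.OrthChev.OddTwo

open Cfsg Cfsg.Lie Cfsg.Agent.Lib.Chev
open scoped commutatorElement

/-- the coordinates -/
abbrev Ix : Type := Unit ⊕ (Fin 2 ⊕ Fin 2)

/-- the frame -/
def frame : Frame Ix where
  bar := Sum.map id Sum.swap
  bar_bar := by decide
  o := .inl ()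

/-- the codes of the roots -/
def codes : Codes where
  m := 5
  barC c := bif Nat.beq c 0 then 0 else (bif Nat.blt c 3 then c + 2 else c - 2)
  ops r := ([⟨false, true, 3, 2⟩, ⟨true, true, 3, 0⟩, ⟨true, true, 4, 0⟩, ⟨false, true, 3, 4⟩, ⟨false, false, 1, 2⟩, ⟨true, false, 2, 0⟩,
    ⟨true, false, 1, 0⟩, ⟨false, false, 1, 4⟩] : List OpCode).getD r ⟨false, false, 1, 2⟩

/-- the indexing -/
def indexing : Indexing codes frame where
  ix k := if k = 0 then .inl () else if k < 3 then .inr (.inl ⟨(k + 1) % 2, Nat.mod_lt _ (by decide)⟩)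
    else .inr (.inr ⟨(k + 1) % 2, Nat.mod_lt _ (by decide)⟩)
  surj := by decide +kernel
  inj := by decide +kernel
  barC_spec := by decide +kernel
  zero := rfl
  pos := by decide

theorem repData : RepData Cfsg.Lie.chevB2 B2.fast codes where
  checked := B2.checked
  code := by decide +kernel
  comm := by decide +kernel
  hdiag := by decide +kernel

theorem cover : codes.coverCheck Cfsg.Lie.chevB2.nroots = true := by decide +kernel

variable (F : Type*) [Field F]

theorem fix_o : ∀ c, frame.bar c = c → c = frame.o := by decide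

theorem adapted : Adapted frame (quadFormOdd 2 F) where
  zero := by simp [quadFormOdd]
  pair v a x h := by
    rcases a with u | i | i
    · exact absurd rfl h
    all_goals (fin_cases i <;> simp [quadFormOdd, frame, Fin.sum_univ_two, Pi.single_apply] <;> ring)
  fixed v a x h := by
    rw [fix_o a h]
    simp [quadFormOdd, frame, Fin.sum_univ_two, Pi.single_apply]
    ring

variable {F}

theorem iso_diag {μ : Ix → Fˣ} (h : ∀ c, μ (frame.bar c) = (μ c)⁻¹) :
    glMono 1 μ ∈ isometryGroup F (quadFormOdd 2 F) := by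
  refine mem_iso_iff.2 fun v => ?_
  have e0 : (μ (.inl ()) : F) * μ (.inl ()) = 1 := by
    have := h (.inl ())
    rw [show frame.bar (.inl ()) = (.inl () : Ix) from rfl] at this
    nth_rewrite 2 [this]
    simp
  simp only [quadFormOdd, glMono_mulVec, Equiv.Perm.one_apply]
  congr 1
  · rw [mul_pow, sq, e0, one_mul]
  · refine Finset.sum_congr rfl fun i _ => ?_
    have e : μ (.inr (.inr i)) = (μ (.inr (.inl i)))⁻¹ := h (.inr (.inl i))
    rw [e, Units.val_inv_eq_inv_val]
    field_simp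

/-- the monomial representatives -/
def Rep (m : GL Ix F) : Prop := ∃ μ : Ix → Fˣ, MonoOK frame 1 μ ∧ m = glMono 1 μ

theorem decomp (g : GL Ix F) (hg : g ∈ isometryGroup F (quadFormOdd 2 F)) :
    ∃ e ∈ rootGrp frame F, Rep (e * g) := by
  have R := rootGen (adapted F) fix_o
  have ho : frame.bar frame.o = frame.o := rfl
  have hO : ∀ {e}, e ∈ rootGrp frame F → e ∈ isometryGroup F (quadFormOdd 2 F) := fun h => R.iso h
  obtain ⟨e₀, h₀, s₀⟩ := R.step (Dn := ∅) (a := .inr (.inl 0)) (by simp) (by decide) (by decide) hg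
    (by simp) (Or.inr (Or.inr ho))
  obtain ⟨e₁, h₁, s₁⟩ := R.step (a := .inr (.inl 1)) (by decide) (by decide) (by decide)
    (mul_mem (hO h₀) hg) s₀ (Or.inr (Or.inr ho))
  have hg₁ := mul_mem (hO h₁) (mul_mem (hO h₀) hg)
  obtain ⟨μ, hμ, he⟩ := R.diag_of_scales hg₁
    (R.fixed_scales hg₁ ho fun c hc => s₁ c (by revert hc; revert c; decide))
  exact ⟨e₁ * e₀, mul_mem h₁ h₀, μ, hμ, by rw [← he]; group⟩

theorem rep_comm (m n : GL Ix F) (hm : Rep m) (hn : Rep n) : ⁅m, n⁆ ∈ rootGrp frame F := by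
  obtain ⟨μ, -, rfl⟩ := hm
  obtain ⟨ν, -, rfl⟩ := hn
  have e : glMono 1 μ * glMono 1 ν = (glMono 1 ν * glMono 1 μ : GL Ix F) := by
    rw [glMono_mul, glMono_mul]
    congr 1
    funext c
    exact mul_comm _ _
  rw [commutatorElement_eq_one_iff_mul_comm.2 e]
  exact one_mem _

theorem omega (hF : ∃ a : F, a ≠ 0 ∧ a ≠ 1) :
    (Omega F (quadFormOdd 2 F)).map (isometryGroup F (quadFormOdd 2 F)).subtype = rootGrp frame F := by
  obtain ⟨x, hx0, hx1⟩ := hF
  refine omega_eq (adapted F) Rep decomp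
    (fun _ hm _ hy => by obtain ⟨μ, hμ, rfl⟩ := hm; exact glMono_conj hμ hy) rep_comm ?_
  have hu : ((Units.mk0 x hx0 : Fˣ) : F) ≠ 1 := hx1
  rintro _ (⟨a, b, h, t, rfl⟩ | ⟨a, h, t, rfl⟩)
  · rw [glL_eq_comm_diag h hu]
    exact comm_mem_omega (iso_diag (pairFn_spec h.ha _)) (rootGrp_iso (adapted F) (glL_mem_rootGrp _ _))
  · rw [glS_eq_comm_diag h hu]
    exact comm_mem_omega (iso_diag (pairFn_spec h.ha _)) (rootGrp_iso (adapted F) (glS_mem_rootGrp _ _))

end Cfsg.Agent.Lib.OrthChev.OddTwo
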