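import Cfsg.Agent.Lib.OrthChev.Iso
import Cfsg.Agent.Lib.Chev.Data.D4

/-!
The representation of Steinberg's group of type D4 on the hyperbolic space of dimension eight.
-/

set_option autoImplicit false

namespace Cfsg.Agent.Lib.OrthChev.PlusFour

open Cfsg Cfsg.Lie Cfsg.Agent.Lib.Chev
open scoped commutatorElement

/-- the coordinates -/
abbrev Ix : Type := Fin 4 ⊕ Fin 4

/-- the frame -/
def frame : Frame Ix where
  bar := Sum.swap
  bar_bar := Sum.swap_swap
  o := .inl 0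

/-- the codes of the roots -/
def codes : Codes where
  m := 8
  barC c := (c + 4) % 8
  ops r := ([⟨false, true, 4, 1⟩, ⟨false, true, 4, 2⟩, ⟨false, true, 4, 7⟩, ⟨false, true, 4, 3⟩, ⟨false, false, 4, 6⟩, ⟨false, true, 4, 5⟩,
    ⟨false, false, 5, 2⟩, ⟨false, false, 5, 7⟩, ⟨false, false, 5, 3⟩, ⟨false, true, 5, 6⟩, ⟨false, true, 6, 7⟩, ⟨false, true, 6, 3⟩,
    ⟨false, false, 2, 7⟩, ⟨false, false, 2, 3⟩, ⟨false, false, 1, 2⟩, ⟨false, true, 1, 7⟩, ⟨false, true, 1, 3⟩, ⟨false, true, 1, 6⟩,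
    ⟨false, false, 0, 1⟩, ⟨false, true, 0, 2⟩, ⟨false, false, 0, 7⟩, ⟨false, false, 0, 3⟩, ⟨false, false, 0, 6⟩, ⟨false, false, 0, 5⟩] : List OpCode).getD r ⟨false, false, 0, 1⟩

/-- the indexing -/
def indexing : Indexing codes frame where
  ix k := if k < 4 then .inl ⟨k % 4, Nat.mod_lt _ (by decide)⟩ else .inr ⟨k % 4, Nat.mod_lt _ (by decide)⟩
  surj := by decide +kernel
  inj := by decide +kernel
  barC_spec := by decide +kernel
  zero := rfl
  pos := by decide

theorem repData : RepData Cfsg.Lie.chevD4 D4.fast codes where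
  checked := D4.checked
  code := by decide +kernel
  comm := by decide +kernel
  hdiag := by decide +kernel

theorem cover : codes.coverCheck Cfsg.Lie.chevD4.nroots = true := by decide +kernel

variable (F : Type*) [Field F]

theorem adapted : Adapted frame (quadFormPlus 4 F) where
  zero := by simp [quadFormPlus]
  pair v a x _ := by
    rcases a with i | i <;> fin_cases i <;>
      simp [quadFormPlus, frame, Fin.sum_univ_four, Pi.single_apply] <;> ring
  fixed v a x h := by rcases a with i | i <;> simp [frame] at h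

theorem bar_ne (c : Ix) : frame.bar c ≠ c := by rcases c with i | i <;> simp [frame]

theorem fix_o : ∀ c, frame.bar c = c → c = frame.o := fun c h => absurd h (bar_ne c)

/-- interchange of the last pair -/
def sw : Equiv.Perm Ix := Equiv.swap (.inl 3) (.inr 3)

variable {F}

theorem iso_diag {μ : Ix → Fˣ} (h : ∀ c, μ (frame.bar c) = (μ c)⁻¹) :
    glMono 1 μ ∈ isometryGroup F (quadFormPlus 4 F) := by
  refine mem_iso_iff.2 fun v => ?_
  refine Finset.sum_congr rfl fun i _ => ?_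
  have e : μ (.inr i) = (μ (.inl i))⁻¹ := h (.inl i)
  rw [glMono_mulVec, glMono_mulVec, e, Units.val_inv_eq_inv_val, Equiv.Perm.one_apply, Equiv.Perm.one_apply]
  field_simp

theorem iso_sw : (glMono sw 1 : GL Ix F) ∈ isometryGroup F (quadFormPlus 4 F) := by
  refine mem_iso_iff.2 fun v => ?_
  simp [quadFormPlus, Fin.sum_univ_four, glMono_mulVec, sw, Equiv.swap_apply_def]
  ring

/-- the monomial representatives -/
def Rep (m : GL Ix F) : Prop :=
  ∃ (σ : Equiv.Perm Ix) (μ : Ix → Fˣ), (σ = 1 ∨ σ = sw) ∧ MonoOK frame σ μ ∧ m = glMono σ μ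

theorem decomp (g : GL Ix F) (hg : g ∈ isometryGroup F (quadFormPlus 4 F)) :
    ∃ e ∈ rootGrp frame F, Rep (e * g) := by
  have R := rootGen (adapted F) fix_o
  have hb : ∀ (Dn : Finset Ix), (∀ d ∈ Dn, frame.bar d ∈ Dn) → ∀ d ∈ Dn, frame.bar d ∈ Dn ∧ frame.bar d ≠ d :=
    fun Dn h d hd => ⟨h d hd, bar_ne d⟩
  have hO : ∀ {e}, e ∈ rootGrp frame F → e ∈ isometryGroup F (quadFormPlus 4 F) := fun h => R.iso h
  obtain ⟨e₀, h₀, s₀⟩ := R.step (Dn := ∅) (a := .inl 0) (hb _ (by decide)) (bar_ne _) (by decide) hg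
    (by simp) (Or.inr (Or.inl ⟨.inl 1, ⟨bar_ne _, bar_ne _, by decide, by decide⟩, by decide⟩))
  obtain ⟨e₁, h₁, s₁⟩ := R.step (a := .inl 1) (hb _ (by decide)) (bar_ne _) (by decide)
    (mul_mem (hO h₀) hg) s₀ (Or.inr (Or.inl ⟨.inl 2, ⟨bar_ne _, bar_ne _, by decide, by decide⟩, by decide⟩))
  obtain ⟨e₂, h₂, s₂⟩ := R.step (a := .inl 2) (hb _ (by decide)) (bar_ne _) (by decide)
    (mul_mem (hO h₁) (mul_mem (hO h₀) hg)) s₁
    (Or.inr (Or.inl ⟨.inl 3, ⟨bar_ne _, bar_ne _, by decide, by decide⟩, by decide⟩))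
  set g₂ := e₂ * (e₁ * (e₀ * g)) with hg₂
  have hg₂O : g₂ ∈ isometryGroup F (quadFormPlus 4 F) := mul_mem (hO h₂) (mul_mem (hO h₁) (mul_mem (hO h₀) hg))
  set v := Matrix.mulVec g₂.1 (Pi.single (Sum.inl 3 : Ix) (1 : F)) with hv
  by_cases hva : v (.inl 3) ≠ 0
  · obtain ⟨e₃, h₃, s₃⟩ := R.step (a := .inl 3) (hb _ (by decide)) (bar_ne _) (by decide) hg₂O s₂ (Or.inl hva)
    obtain ⟨μ, hμ, he⟩ := R.diag_of_scales (mul_mem (hO h₃) hg₂O) fun c => s₃ c (by revert c; decide)
    exact ⟨e₃ * (e₂ * (e₁ * e₀)), mul_mem h₃ (mul_mem h₂ (mul_mem h₁ h₀)), 1, μ, Or.inl rfl, hμ,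
      by rw [← he, hg₂]; group⟩
  · rw [not_not] at hva
    set s : GL Ix F := glMono sw 1 with hs
    have hsO : s * g₂ ∈ isometryGroup F (quadFormPlus 4 F) := mul_mem iso_sw hg₂O
    have hfix : ∀ d, d ≠ Sum.inl 3 → d ≠ Sum.inr 3 → Fixes s d := fun d h1 h2 => by
      funext c
      rw [hs, glMono_mulVec]
      simp only [Pi.one_apply, Units.val_one, one_mul, sw, Equiv.swap_apply_def, Pi.single_apply]
      split_ifs <;> simp_all
    have hne : Matrix.mulVec (s * g₂).1 (Pi.single (Sum.inl 3 : Ix) (1 : F)) (.inl 3) ≠ 0 := by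
      rw [Units.val_mul, ← Matrix.mulVec_mulVec, ← hv, hs, glMono_mulVec]
      simp only [sw, Equiv.swap_apply_left, Pi.one_apply, Units.val_one, one_mul]
      intro hz
      have hzero : v = 0 := by
        funext c
        by_cases h1 : c = .inl 3
        · rw [h1, hva]; rfl
        by_cases h2 : c = .inr 3
        · rw [h2, hz]; rfl
        obtain ⟨x, hx, ex⟩ := s₂ (frame.bar c) (by revert h1 h2; revert c; decide)
        have := (adapted F).transfer hg₂O (bar_ne _) ex (Pi.single (.inl 3) 1)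
        rw [frame.bar_bar, Pi.single_eq_of_ne h1] at this
        exact (mul_eq_zero.1 this).resolve_left hx
      have := congrArg (Matrix.mulVec (g₂⁻¹ : GL Ix F).1) hzero
      rw [hv, Matrix.mulVec_mulVec, ← Units.val_mul, inv_mul_cancel, Units.val_one, Matrix.one_mulVec,
        Matrix.mulVec_zero] at this
      simpa using congrFun this (.inl 3)
    obtain ⟨e₃, h₃, s₃⟩ := R.step (a := .inl 3) (hb _ (by decide)) (bar_ne _) (by decide) hsO
      (fun d hd => (hfix d (by revert hd; revert d; decide) (by revert hd; revert d; decide)).scales_mul (s₂ d hd))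
      (Or.inl hne)
    obtain ⟨μ, hμ, he⟩ := R.diag_of_scales (mul_mem (hO h₃) hsO) fun c => s₃ c (by revert c; decide)
    have hok : MonoOK frame sw (1 : Ix → Fˣ) := ⟨by decide, by simp, Or.inr (bar_ne _)⟩
    have hss : s * s = 1 := gl_ext fun v => funext fun c => by
      simp [hs, glMono_mul, glMono_mulVec, sw]
    refine ⟨s * e₃ * s⁻¹ * (e₂ * (e₁ * e₀)), mul_mem (glMono_conj hok h₃) (mul_mem h₂ (mul_mem h₁ h₀)),
      sw, fun c => μ (sw c), Or.inr rfl, ⟨hok.hσ, fun c => by show μ (sw (frame.bar c)) = _; rw [hok.hσ, hμ.hμ],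
        Or.inr (bar_ne _)⟩, ?_⟩
    rw [show glMono sw (fun c => μ (sw c)) = s * glMono 1 μ by rw [hs, glMono_mul]; simp, ← he, hg₂,
      inv_eq_of_mul_eq_one_left hss]
    group

theorem rep_comm (m n : GL Ix F) (hm : Rep m) (hn : Rep n) : ⁅m, n⁆ ∈ rootGrp frame F := by
  obtain ⟨σ, μ, hσ, hμ, rfl⟩ := hm
  obtain ⟨τ, ν, hτ, hν, rfl⟩ := hn
  have hcom : τ * σ = σ * τ := by rcases hσ with rfl | rfl <;> rcases hτ with rfl | rfl <;> simp
  have h01 : LongOK frame (Sum.inl 3) (Sum.inl 0) := ⟨bar_ne _, bar_ne _, by decide, by decide⟩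
  set z : Fˣ := (if σ = 1 then 1 else (ν (.inl 3))⁻¹) * (if τ = 1 then 1 else μ (.inl 3)) with hz
  have key : glMono σ μ * glMono τ ν =
      (glMono 1 (pairFn frame (.inl 3) (z * z)) : GL Ix F) * (glMono τ ν * glMono σ μ) := by
    rw [glMono_mul, glMono_mul, glMono_mul, mul_one, hcom]
    congr 1
    funext c
    simp only [Equiv.Perm.one_apply]
    have h1 := hμ.hμ (.inl 3)
    have h2 := hν.hμ (.inl 3)
    change μ (.inr 3) = _ at h1
    change ν (.inr 3) = _ at h2
    have hsw : sw ≠ 1 := fun e => by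
      have := congrFun (congrArg (fun p : Equiv.Perm Ix => (p : Ix → Ix)) e) (.inl 3)
      simp [sw] at this
    rw [hz]
    ext
    rcases hσ with rfl | rfl <;> rcases hτ with rfl | rfl <;> rcases c with i | i <;> fin_cases i <;>
      simp [pairFn, frame, sw, hsw, Equiv.swap_apply_def, h1, h2] <;> field_simp
  rw [commutatorElement_def]
  rw [show glMono σ μ * glMono τ ν * (glMono σ μ)⁻¹ * (glMono τ ν)⁻¹ =
    glMono σ μ * glMono τ ν * (glMono τ ν * glMono σ μ)⁻¹ by group, key, mul_inv_cancel_right]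
  exact pair_sq_mem h01 z

theorem perf : rootSet frame F ⊆ (Omega F (quadFormPlus 4 F)).map (isometryGroup F (quadFormPlus 4 F)).subtype := by
  rintro _ (⟨a, b, h, t, rfl⟩ | ⟨a, h, t, rfl⟩)
  · obtain ⟨c, hc1, hc2, hc3, hc4⟩ : ∃ c : Ix, a ≠ c ∧ a ≠ frame.bar c ∧ c ≠ b ∧ c ≠ frame.bar b := by
      clear h; revert a b; decide
    have h1 : LongOK frame a c := ⟨bar_ne _, bar_ne _, hc1, hc2⟩
    have h2 : LongOK frame c b := ⟨bar_ne _, bar_ne _, hc3, hc4⟩
    rw [glL_eq_comm h h1 h2]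
    exact comm_mem_omega (rootGrp_iso (adapted F) (glL_mem_rootGrp h1 t))
      (rootGrp_iso (adapted F) (glL_mem_rootGrp h2 1))
  · exact absurd h.ho (bar_ne _)

theorem omega : (Omega F (quadFormPlus 4 F)).map (isometryGroup F (quadFormPlus 4 F)).subtype = rootGrp frame F :=
  omega_eq (adapted F) Rep decomp
    (fun _ hm _ hx => by obtain ⟨σ, μ, -, hμ, rfl⟩ := hm; exact glMono_conj hμ hx) rep_comm perf

end Cfsg.Agent.Lib.OrthChev.PlusFour
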